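import Mathlib
import Cfsg.Statements.S2948
import Cfsg.Statements.S2950
import Cfsg.Statements.S2951
import Cfsg.Agent.S2946
import Cfsg.Agent.Lib.Helper2.KS12.PZ
import Cfsg.Agent.Lib.Helper81.KS12.S2950Core
import Cfsg.Agent.Lib.Helper81.KS12.JCompConj
import Cfsg.Agent.Lib.Helper71.JC.JCInst
import Cfsg.Agent.Lib.Helper53.Basic

/-!
Kurzweil–Stellmacher chapter 12 cluster, package V4 (helper2): the case `T < S` of S2951.

Setting: `S` a Sylow 2-subgroup of `G`, `M` a 2-local subgroup containing `N_G(J(S))`,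
`T ∈ maxStraddlingTwoSubgroups M`, `T ≤ S`, `K ∈ jComponentsOutside M T`, `L` a maximal 2-local
subgroup containing `K ⊔ J(T)`; `Z = Ω₁(Z(S))`, `Z₀ = Ω₁(Z(J(T)))`,
`YK T K = Z₀ ∩ Z(K ⊔ J(T))`.  The uniqueness statement S2950 enters as the hypothesis
`Uniq M`.
-/

set_option autoImplicit false

namespace Cfsg.Agent.Lib.Helper2.KS12

open Cfsg
open scoped Pointwise commutatorElement

variable {G : Type*} [Group G]

/-- `Z₀ ∩ Z(K ⊔ J(T))` for `Z₀ = Ω₁(Z(J(T)))`. -/
abbrev YK (T K : Subgroup G) : Subgroup G :=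
  omegaCenterOf (thompsonSubgroupOf 2 T) ⊓
    ((K ⊔ thompsonSubgroupOf 2 T) ⊓
      Subgroup.centralizer ((K ⊔ thompsonSubgroupOf 2 T : Subgroup G) : Set G))

/-- The uniqueness statement (S2950 without the subnormality clause) for the 2-local `M`. -/
def Uniq (M : Subgroup G) : Prop :=
  ∀ T ∈ maxStraddlingTwoSubgroups M, ∀ K ∈ jComponentsOutside M T,
    ∃ L : Subgroup G, IsMaximalTwoLocal L ∧ K ⊔ thompsonSubgroupOf 2 T ≤ L ∧
      (∀ L' : Subgroup G, IsMaximalTwoLocal L' → K ⊔ thompsonSubgroupOf 2 T ≤ L' → L' = L) ∧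
      IsSylowTwoIn T L

/-! ### General lemmas -/

theorem card_sup_mul_card_inf_of_le_normalizer {N T : Subgroup G}
    (hTN : T ≤ Subgroup.normalizer (N : Set G)) :
    Nat.card ↥(N ⊔ T) * Nat.card ↥(N ⊓ T) = Nat.card N * Nat.card T := by
  have h1 := Cfsg.Agent.Lib.Helper10.card_mul_card_inf N T
  have h2 : Nat.card ((N : Set G) * (T : Set G) : Set G) = Nat.card ↥(N ⊔ T) :=
    (Nat.card_congr (Equiv.setCongr (Subgroup.coe_mul_of_right_le_normalizer_left N T hTN))).symm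
  rw [h2] at h1
  exact h1

/-- The centralizer of the union of two subgroups is the centralizer of their join (the frozen
statement S2946 is written with the union). -/
theorem centralizer_union_eq (K J : Subgroup G) :
    Subgroup.centralizer ((K : Set G) ⊔ (J : Set G)) =
      Subgroup.centralizer ((K ⊔ J : Subgroup G) : Set G) := by
  apply le_antisymm
  · intro x hx
    rw [Subgroup.mem_centralizer_iff] at hx ⊢
    have hle : K ⊔ J ≤ Subgroup.centralizer ({x} : Set G) := by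
      refine sup_le ?_ ?_
      · intro k hk
        rw [Subgroup.mem_centralizer_iff]
        intro h hh
        rw [Set.mem_singleton_iff] at hh
        subst hh
        exact (hx k (Or.inl hk)).symm
      · intro j hj
        rw [Subgroup.mem_centralizer_iff]
        intro h hh
        rw [Set.mem_singleton_iff] at hh
        subst hh
        exact (hx j (Or.inr hj)).symm
    intro y hy
    have h1 := Subgroup.mem_centralizer_iff.mp (hle hy) x rfl
    exact h1.symm
  · apply Subgroup.centralizer_le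
    intro y hy
    rcases hy with h | h
    · exact (le_sup_left : K ≤ K ⊔ J) h
    · exact (le_sup_right : J ≤ K ⊔ J) h

theorem omegaCenterOf_le_of_forall {X H : Subgroup G}
    (h : ∀ x ∈ X, x ∈ Subgroup.centralizer (X : Set G) → x ^ 2 = 1 → x ∈ H) :
    omegaCenterOf X ≤ H := by
  unfold omegaCenterOf omegaOne
  rw [Subgroup.closure_le]
  rintro x ⟨⟨hx, hc⟩, h2⟩
  exact h x hx hc h2

/-- `Ω₁(Z(T)) ≤ Ω₁(Z(J(T)))`. -/
theorem omegaCenterOf_le_omegaCenterOf_thompson [Finite G] (T : Subgroup G) :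
    omegaCenterOf T ≤ omegaCenterOf (thompsonSubgroupOf 2 T) := by
  apply omegaCenterOf_le_of_forall
  intro x hxT hxC hx2
  have hJT := Cfsg.Agent.Lib.Helper11.thompsonSubgroupOf_le 2 T
  refine mem_omegaCenterOf ?_ (Subgroup.centralizer_le hJT hxC) hx2
  obtain ⟨A, hA⟩ := Cfsg.Agent.Lib.Helper11.maxElemAbIn_nonempty 2 T
  have hAJ := Cfsg.Agent.Lib.Helper11.le_thompsonSubgroupOf hA
  obtain ⟨hAT, hAe, hAmax⟩ := hA
  have hB : IsElementaryAbelian 2 (A ⊔ Subgroup.zpowers x) := by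
    refine Cfsg.Agent.Lib.Helper10.isElementaryAbelian_sup hAe
      (Cfsg.Agent.Lib.Helper10.isElementaryAbelian_zpowers hx2) ?_
    rintro a ha _ ⟨k, rfl⟩
    have hc : Commute a x := Subgroup.mem_centralizer_iff.mp hxC a (hAT ha)
    exact (hc.zpow_right k).eq
  have hBT : A ⊔ Subgroup.zpowers x ≤ T := sup_le hAT (Subgroup.zpowers_le.mpr hxT)
  have hcard := hAmax _ hBT hB
  have heq : A = A ⊔ Subgroup.zpowers x := Subgroup.eq_of_le_of_card_ge le_sup_left hcard
  apply hAJ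
  rw [heq]
  exact Subgroup.mem_sup_right (Subgroup.mem_zpowers x)

/-- `Ω₁(Z(S)) ≤ Ω₁(Z(T))` for a Sylow 2-subgroup `T ≤ S` of `L` with `C_G(O₂(L)) ≤ O₂(L)`. -/
theorem omegaCenterOf_sylow_le_omegaCenterOf [Finite G] {T L : Subgroup G}
    (hT : IsSylowTwoIn T L)
    (hCQ : Subgroup.centralizer (pCoreOf 2 L : Set G) ≤ pCoreOf 2 L) (S : Sylow 2 G)
    (hTS : T ≤ (S : Subgroup G)) : omegaCenterOf (S : Subgroup G) ≤ omegaCenterOf T := by
  intro x hx
  have hxV := omegaCenterOf_sylow_le_VL hT hCQ S hTS hx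
  exact mem_omegaCenterOf (VL_le_of_isSylowTwoIn hT hxV)
    (Subgroup.centralizer_le hTS (omegaCenterOf_le_centralizer _ hx)) (omegaCenterOf_sq _ hx)

/-- A 2-local subgroup of a group of characteristic 2 type satisfies `C_G(O₂(L)) ≤ O₂(L)`. -/
theorem centralizer_pCoreOf_le_of_isTwoLocal (hL : IsCharacteristicTwoType G) {L : Subgroup G}
    (hL2 : IsTwoLocal L) : Subgroup.centralizer (pCoreOf 2 L : Set G) ≤ pCoreOf 2 L := by
  obtain ⟨P, hP, hP1, rfl⟩ := hL2
  have hchar := hL.2 P hP hP1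
  unfold IsOfCharacteristicTwo at hchar
  have hPQ : P ≤ pCoreOf 2 (Subgroup.normalizer (P : Set G)) :=
    Cfsg.Agent.Lib.Helper85.KS12.le_pCoreOf_of_normal hP Subgroup.le_normalizer le_rfl
  intro c hc
  have hcP : c ∈ Subgroup.centralizer (P : Set G) := Subgroup.centralizer_le hPQ hc
  have hcN : c ∈ Subgroup.normalizer (P : Set G) := Subgroup.centralizer_le_normalizer _ hcP
  have h1 : (⟨c, hcN⟩ : ↥(Subgroup.normalizer (P : Set G))) ∈
      Subgroup.centralizer (pCore 2 ↥(Subgroup.normalizer (P : Set G)) : Set _) := by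
    rw [Subgroup.mem_centralizer_iff]
    intro q hq
    apply Subtype.ext
    have hq' : (q : G) ∈ pCoreOf 2 (Subgroup.normalizer (P : Set G)) := ⟨q, hq, rfl⟩
    exact Subgroup.mem_centralizer_iff.mp hc (q : G) hq'
  exact ⟨⟨c, hcN⟩, hchar h1, rfl⟩

/-- A maximal 2-local subgroup is self-normalizing. -/
theorem normalizer_le_of_isMaximalTwoLocal {L : Subgroup G} (hL : IsMaximalTwoLocal L) :
    Subgroup.normalizer (L : Set G) ≤ L := by
  haveI : Fact (Nat.Prime 2) := ⟨Nat.prime_two⟩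
  obtain ⟨⟨P, hP, hP1, hLP⟩, hmax⟩ := hL
  have hPQ : P ≤ pCoreOf 2 L := by
    rw [hLP]
    exact Cfsg.Agent.Lib.Helper85.KS12.le_pCoreOf_of_normal hP Subgroup.le_normalizer le_rfl
  have hQ1 : pCoreOf 2 L ≠ ⊥ := by
    intro h
    rw [h] at hPQ
    exact hP1 (le_bot_iff.mp hPQ)
  have h2 : IsTwoLocal (Subgroup.normalizer (pCoreOf 2 L : Set G)) :=
    ⟨_, pCoreOf_two_isPGroup L, hQ1, rfl⟩
  have h3 := hmax _ h2 (Cfsg.Agent.Lib.Helper47.le_normalizer_pCoreOf 2 L)
  intro x hx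
  rw [← h3]
  exact Cfsg.Agent.Lib.Helper47.normalizer_le_normalizer_pCoreOf 2 L hx

theorem isTwoLocal_map_conj {L : Subgroup G} (hL : IsTwoLocal L) (g : G) :
    IsTwoLocal (L.map (MulAut.conj g).toMonoidHom) := by
  obtain ⟨P, hP, hP1, rfl⟩ := hL
  refine ⟨P.map (MulAut.conj g).toMonoidHom, hP.map _,
    Cfsg.Agent.Lib.Helper47.map_conj_ne_bot hP1 g, ?_⟩
  rw [Cfsg.Agent.Lib.Helper47.normalizer_map_conj]

theorem isMaximalTwoLocal_map_conj {L : Subgroup G} (hL : IsMaximalTwoLocal L) (g : G) :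
    IsMaximalTwoLocal (L.map (MulAut.conj g).toMonoidHom) := by
  refine ⟨isTwoLocal_map_conj hL.1 g, ?_⟩
  intro N hN hle
  have h1 : L ≤ N.map (MulAut.conj g⁻¹).toMonoidHom := by
    have := Subgroup.map_mono (f := (MulAut.conj g⁻¹).toMonoidHom) hle
    rwa [Cfsg.Agent.Lib.Helper47.map_conj_inv_map_conj] at this
  have h2 := hL.2 _ (isTwoLocal_map_conj hN g⁻¹) h1
  rw [← h2, Cfsg.Agent.Lib.Helper47.map_conj_map_conj_inv]

theorem isSylowTwoIn_map_conj {T L : Subgroup G} (h : IsSylowTwoIn T L) (g : G) :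
    IsSylowTwoIn (T.map (MulAut.conj g).toMonoidHom) (L.map (MulAut.conj g).toMonoidHom) := by
  refine ⟨Subgroup.map_mono h.1, h.2.1.map _, ?_⟩
  rw [Subgroup.relIndex_map_map_of_injective _ _ (MulAut.conj g).injective]
  exact h.2.2

/-- A `J(T)`-component is not a 2-group. -/
theorem isJComponent_not_isPGroup {T K : Subgroup G} (hK : IsJComponent T K) :
    ¬ IsPGroup 2 K := by
  intro h
  have h1 : K ≤ pCoreOf 2 K :=
    Cfsg.Agent.Lib.Helper85.KS12.le_pCoreOf_of_normal h le_rfl Subgroup.le_normalizer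
  have h2 : (pCoreOf 2 K).relIndex K = 1 := Subgroup.relIndex_eq_one.mpr h1
  have h3 := hK.2.2.1
  omega

/-- A `J(T)`-component does not normalize a 2-group containing `J(T)`. -/
theorem isJComponent_not_le_normalizer {T K : Subgroup G} (hK : IsJComponent T K)
    {P : Subgroup G} (hP : IsPGroup 2 P) (hJP : thompsonSubgroupOf 2 T ≤ P) :
    ¬ K ≤ Subgroup.normalizer (P : Set G) := by
  intro h
  apply isJComponent_not_isPGroup hK
  have hKP : ⁅K, thompsonSubgroupOf 2 T⁆ ≤ P := by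
    rw [Subgroup.commutator_le]
    intro k hk j hj
    have h1 : k * j * k⁻¹ ∈ P := (Subgroup.mem_normalizer_iff.mp (h hk) j).mp (hJP hj)
    have h2 : ⁅k, j⁆ = k * j * k⁻¹ * j⁻¹ := commutatorElement_def k j
    rw [h2]
    exact P.mul_mem h1 (P.inv_mem (hJP hj))
  rw [hK.2.1] at hKP
  exact hP.to_le hKP

/-- `K ⊔ J(T)` does not normalize a Sylow 2-subgroup of `G`. -/
theorem isJComponent_not_le_normalizer_sylow {T K : Subgroup G} (hT : IsPGroup 2 T)
    (hK : IsJComponent T K) (S : Sylow 2 G) :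
    ¬ K ⊔ thompsonSubgroupOf 2 T ≤ Subgroup.normalizer ((S : Subgroup G) : Set G) := by
  haveI : Fact (Nat.Prime 2) := ⟨Nat.prime_two⟩
  intro h
  have hJ2 : IsPGroup 2 (thompsonSubgroupOf 2 T) :=
    hT.to_le (Cfsg.Agent.Lib.Helper11.thompsonSubgroupOf_le 2 T)
  have hJN : thompsonSubgroupOf 2 T ≤ Subgroup.normalizer ((S : Subgroup G) : Set G) :=
    le_sup_right.trans h
  have hX2 : IsPGroup 2 ((S : Subgroup G) ⊔ thompsonSubgroupOf 2 T : Subgroup G) :=
    IsPGroup.to_sup_of_normal_left' S.isPGroup' hJ2 hJN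
  have hJS : thompsonSubgroupOf 2 T ≤ (S : Subgroup G) := by
    have h1 := S.is_maximal' hX2 le_sup_left
    calc thompsonSubgroupOf 2 T ≤ (S : Subgroup G) ⊔ thompsonSubgroupOf 2 T := le_sup_right
      _ = (S : Subgroup G) := h1
  exact isJComponent_not_le_normalizer hK S.isPGroup' hJS (le_sup_left.trans h)

/-! ### Conjugating a member of `jComponentsOutside M T` by an element of `N_M(T)` -/

theorem jComponentsOutside_map_conj {M T K : Subgroup G} (hK : K ∈ jComponentsOutside M T)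
    {x : G} (hxM : x ∈ M) (hxT : x ∈ Subgroup.normalizer (T : Set G)) :
    K.map (MulAut.conj x).toMonoidHom ∈ jComponentsOutside M T := by
  obtain ⟨⟨hKJ, hK0⟩, hKM, hO⟩ := hK
  have hxJ : x ∈ Subgroup.normalizer (thompsonSubgroupOf 2 T : Set G) :=
    Cfsg.Agent.Lib.Helper11.normalizer_le_normalizer_thompsonSubgroupOf 2 T hxT
  have hxJ' : x⁻¹ ∈ Subgroup.normalizer (thompsonSubgroupOf 2 T : Set G) :=
    Subgroup.inv_mem _ hxJ
  refine ⟨⟨Cfsg.Agent.Lib.Helper81.KS12.isJComponent_map_conj hKJ hxJ, ?_⟩, ?_, ?_⟩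
  · intro S' hJS' hS'
    rw [Cfsg.Agent.Lib.Helper81.KS12.wOf_map, Cfsg.Agent.Lib.Helper47.normalizer_map_conj] at hS'
    have h1 := isSylowTwoIn_map_conj hS' x⁻¹
    rw [Cfsg.Agent.Lib.Helper47.map_conj_inv_map_conj] at h1
    have h2 : thompsonSubgroupOf 2 T ≤ S'.map (MulAut.conj x⁻¹).toMonoidHom := by
      have := Subgroup.map_mono (f := (MulAut.conj x⁻¹).toMonoidHom) hJS'
      rwa [Cfsg.Agent.Lib.Helper47.map_conj_eq_of_mem_normalizer hxJ'] at this
    have h3 := hK0 _ h2 h1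
    have h4 := Cfsg.Agent.Lib.Helper11.thompsonSubgroupOf_map 2 (MulAut.conj x).toMonoidHom
      (MulAut.conj x).injective (S'.map (MulAut.conj x⁻¹).toMonoidHom)
    rw [Cfsg.Agent.Lib.Helper47.map_conj_map_conj_inv, h3,
      Cfsg.Agent.Lib.Helper47.map_conj_eq_of_mem_normalizer hxJ] at h4
    exact h4
  · intro h
    apply hKM
    intro k hk
    have h1 : x * k * x⁻¹ ∈ M := h ⟨k, hk, by simp⟩
    have h2 : k = x⁻¹ * (x * k * x⁻¹) * x := by group
    rw [h2]
    exact M.mul_mem (M.mul_mem (M.inv_mem hxM) h1) hxM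
  · have h1 : K.map (MulAut.conj x).toMonoidHom ⊔ T = (K ⊔ T).map (MulAut.conj x).toMonoidHom := by
      rw [Subgroup.map_sup, Cfsg.Agent.Lib.Helper47.map_conj_eq_of_mem_normalizer hxT]
    rw [h1, Cfsg.Agent.Lib.Helper46.pCoreOf_map]
    exact Cfsg.Agent.Lib.Helper47.map_conj_ne_bot hO x

/-! ### The analysis -/

section Analysis

variable [Finite G]

/-- From `Uniq M`: `L` is the only maximal 2-local subgroup over `K ⊔ J(T)`, and `T` is a Sylow
2-subgroup of `L`. -/
theorem uniq_facts {M : Subgroup G} (hU : Uniq M) {T : Subgroup G}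
    (hT : T ∈ maxStraddlingTwoSubgroups M) {K : Subgroup G} (hK : K ∈ jComponentsOutside M T)
    {L : Subgroup G} (hLmax : IsMaximalTwoLocal L) (hKL : K ⊔ thompsonSubgroupOf 2 T ≤ L) :
    (∀ L' : Subgroup G, IsMaximalTwoLocal L' → K ⊔ thompsonSubgroupOf 2 T ≤ L' → L' = L) ∧
      IsSylowTwoIn T L := by
  obtain ⟨L₀, -, -, huniq, hsyl⟩ := hU T hT K hK
  have h := huniq L hLmax hKL
  subst h
  exact ⟨huniq, hsyl⟩

/-- (b) a nontrivial 2-subgroup normalized by `K ⊔ J(T)` has its normalizer inside `L`. -/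
theorem normalizer_le_of_uniq {K J L Y1 : Subgroup G}
    (huniq : ∀ L' : Subgroup G, IsMaximalTwoLocal L' → K ⊔ J ≤ L' → L' = L)
    (hY2 : IsPGroup 2 Y1) (hY1 : Y1 ≠ ⊥) (hXY : K ⊔ J ≤ Subgroup.normalizer (Y1 : Set G)) :
    Subgroup.normalizer (Y1 : Set G) ≤ L := by
  obtain ⟨L1, hL1, hle⟩ := Cfsg.Agent.Lib.Helper81.KS12.exists_isMaximalTwoLocal_ge
    (⟨Y1, hY2, hY1, rfl⟩ : IsTwoLocal (Subgroup.normalizer (Y1 : Set G)))
  have := huniq L1 hL1 (hXY.trans hle)
  rw [← this]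
  exact hle

theorem YK_le (T K : Subgroup G) : YK T K ≤ omegaCenterOf (thompsonSubgroupOf 2 T) := inf_le_left

theorem le_centralizer_YK (T K : Subgroup G) :
    K ⊔ thompsonSubgroupOf 2 T ≤ Subgroup.centralizer (YK T K : Set G) := by
  intro g hg
  rw [Subgroup.mem_centralizer_iff]
  intro y hy
  exact (Subgroup.mem_centralizer_iff.mp hy.2.2 g hg).symm

theorem YK_isPGroup {T : Subgroup G} (hT : IsPGroup 2 T) (K : Subgroup G) {Y1 : Subgroup G}
    (h : Y1 ≤ YK T K) : IsPGroup 2 Y1 :=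
  hT.to_le (h.trans ((YK_le T K).trans ((omegaCenterOf_le _).trans
    (Cfsg.Agent.Lib.Helper11.thompsonSubgroupOf_le 2 T))))

/-- (b) for subgroups of `YK T K`. -/
theorem normalizer_le_of_le_YK {M : Subgroup G} (hU : Uniq M) {T : Subgroup G}
    (hT : T ∈ maxStraddlingTwoSubgroups M) {K : Subgroup G} (hK : K ∈ jComponentsOutside M T)
    {L : Subgroup G} (hLmax : IsMaximalTwoLocal L) (hKL : K ⊔ thompsonSubgroupOf 2 T ≤ L)
    {Y1 : Subgroup G} (hY : Y1 ≤ YK T K) (hY1 : Y1 ≠ ⊥) :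
    Subgroup.normalizer (Y1 : Set G) ≤ L := by
  apply normalizer_le_of_uniq (uniq_facts hU hT hK hLmax hKL).1 (YK_isPGroup hT.1.1 K hY) hY1
  exact ((le_centralizer_YK T K).trans (Subgroup.centralizer_le hY)).trans
    (Subgroup.centralizer_le_normalizer _)

/-- (c) for `x ∈ N_M(T)` outside `L`: `Y ∩ Y^x = 1`. -/
theorem YK_inf_map_eq_bot {M : Subgroup G} (hU : Uniq M) {T : Subgroup G}
    (hT : T ∈ maxStraddlingTwoSubgroups M) {K : Subgroup G} (hK : K ∈ jComponentsOutside M T)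
    {L : Subgroup G} (hLmax : IsMaximalTwoLocal L) (hKL : K ⊔ thompsonSubgroupOf 2 T ≤ L)
    {x : G} (hxM : x ∈ M) (hxT : x ∈ Subgroup.normalizer (T : Set G)) (hxL : x ∉ L) :
    YK T K ⊓ (YK T K).map (MulAut.conj x).toMonoidHom = ⊥ := by
  by_contra hne
  have hxJ : x ∈ Subgroup.normalizer (thompsonSubgroupOf 2 T : Set G) :=
    Cfsg.Agent.Lib.Helper11.normalizer_le_normalizer_thompsonSubgroupOf 2 T hxT
  obtain ⟨huniq, -⟩ := uniq_facts hU hT hK hLmax hKL
  have hK' := jComponentsOutside_map_conj hK hxM hxT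
  have hXmap : (K ⊔ thompsonSubgroupOf 2 T).map (MulAut.conj x).toMonoidHom =
      K.map (MulAut.conj x).toMonoidHom ⊔ thompsonSubgroupOf 2 T := by
    rw [Subgroup.map_sup, Cfsg.Agent.Lib.Helper47.map_conj_eq_of_mem_normalizer hxJ]
  have hKL' : K.map (MulAut.conj x).toMonoidHom ⊔ thompsonSubgroupOf 2 T ≤
      L.map (MulAut.conj x).toMonoidHom := by
    rw [← hXmap]
    exact Subgroup.map_mono hKL
  obtain ⟨huniq', -⟩ := uniq_facts hU hT hK' (isMaximalTwoLocal_map_conj hLmax x) hKL'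
  -- the 2-local `N_G(Y ∩ Y^x)`
  have h2 : IsPGroup 2 ↥(YK T K ⊓ (YK T K).map (MulAut.conj x).toMonoidHom) :=
    YK_isPGroup hT.1.1 K inf_le_left
  have hX1 : K ⊔ thompsonSubgroupOf 2 T ≤ Subgroup.normalizer
      ((YK T K ⊓ (YK T K).map (MulAut.conj x).toMonoidHom : Subgroup G) : Set G) :=
    ((le_centralizer_YK T K).trans (Subgroup.centralizer_le inf_le_left)).trans
      (Subgroup.centralizer_le_normalizer _)
  have hX2 : K.map (MulAut.conj x).toMonoidHom ⊔ thompsonSubgroupOf 2 T ≤ Subgroup.normalizer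
      ((YK T K ⊓ (YK T K).map (MulAut.conj x).toMonoidHom : Subgroup G) : Set G) := by
    rw [← hXmap]
    have h3 : (K ⊔ thompsonSubgroupOf 2 T).map (MulAut.conj x).toMonoidHom ≤
        Subgroup.centralizer (((YK T K).map (MulAut.conj x).toMonoidHom : Subgroup G) : Set G) := by
      rw [Cfsg.Agent.Lib.Helper47.centralizer_map_conj]
      exact Subgroup.map_mono (le_centralizer_YK T K)
    exact (h3.trans (Subgroup.centralizer_le inf_le_right)).trans
      (Subgroup.centralizer_le_normalizer _)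
  obtain ⟨L1, hL1, hle⟩ := Cfsg.Agent.Lib.Helper81.KS12.exists_isMaximalTwoLocal_ge
    (⟨_, h2, hne, rfl⟩ : IsTwoLocal (Subgroup.normalizer
      ((YK T K ⊓ (YK T K).map (MulAut.conj x).toMonoidHom : Subgroup G) : Set G)))
  have e1 := huniq L1 hL1 (hX1.trans hle)
  have e2 := huniq' L1 hL1 (hX2.trans hle)
  have e3 : L.map (MulAut.conj x).toMonoidHom = L := by rw [← e2, e1]
  exact hxL (normalizer_le_of_isMaximalTwoLocal hLmax
    (Subgroup.mem_normalizer_iff_map_conj_eq.mpr e3))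

/-- `S ≤ M`. -/
theorem sylow_le_of_normalizer_thompson_le (S : Sylow 2 G) {M : Subgroup G}
    (hMJ : Subgroup.normalizer (thompsonSubgroupOf 2 (S : Subgroup G) : Set G) ≤ M) :
    (S : Subgroup G) ≤ M :=
  (Subgroup.le_normalizer.trans
    (Cfsg.Agent.Lib.Helper11.normalizer_le_normalizer_thompsonSubgroupOf 2 _)).trans hMJ

/-- An element of `N_S(T) \ T` lies in `M` but not in `L`. -/
theorem notMem_of_mem_sylow {T L : Subgroup G} (hsyl : IsSylowTwoIn T L) (S : Sylow 2 G)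
    (hTS : T ≤ (S : Subgroup G)) {x : G} (hxS : x ∈ (S : Subgroup G)) (hxT : x ∉ T) : x ∉ L := by
  intro hxL
  have hP : IsPGroup 2 ↥(T ⊔ Subgroup.zpowers x) :=
    S.isPGroup'.to_le (sup_le hTS (Subgroup.zpowers_le.mpr hxS))
  have := le_of_isSylowTwoIn_of_le hsyl hP le_sup_left
    (sup_le hsyl.1 (Subgroup.zpowers_le.mpr hxL))
  exact hxT (this (Subgroup.mem_sup_right (Subgroup.mem_zpowers x)))

/-- (a) `K` does not centralize `Z = Ω₁(Z(S))`. -/
theorem not_le_centralizer_omegaCenterOf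
    (hZ : ∀ S : Sylow 2 G, Subgroup.centralizer (Cfsg.omegaCenterOf (S : Subgroup G) : Set G) ≤
      Subgroup.normalizer ((S : Subgroup G) : Set G))
    (S : Sylow 2 G) {M : Subgroup G}
    (hMJ : Subgroup.normalizer (thompsonSubgroupOf 2 (S : Subgroup G) : Set G) ≤ M)
    {T K : Subgroup G} (hK : K ∈ jComponentsOutside M T) :
    ¬ K ≤ Subgroup.centralizer (omegaCenterOf (S : Subgroup G) : Set G) := fun h =>
  hK.2.1 (h.trans ((hZ S).trans
    ((Cfsg.Agent.Lib.Helper11.normalizer_le_normalizer_thompsonSubgroupOf 2 _).trans hMJ)))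

/-- `|Z₀| = 2 |Y|` (from S2946). -/
theorem card_omegaCenterOf_thompson (hL : Cfsg.IsCharacteristicTwoType G)
    (hN : ∀ N : Subgroup G, Cfsg.IsTwoLocal N → Group.IsSolvable ↥N)
    (hZ : ∀ S : Sylow 2 G, Subgroup.centralizer (Cfsg.omegaCenterOf (S : Subgroup G) : Set G) ≤
      Subgroup.normalizer ((S : Subgroup G) : Set G))
    {T K : Subgroup G} (hT : IsPGroup 2 T) (hT1 : T ≠ ⊥) (hK : IsJComponent T K) :
    Nat.card ↥(omegaCenterOf (thompsonSubgroupOf 2 T)) = Nat.card ↥(YK T K) * 2 ∧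
      omegaCenterOf (thompsonSubgroupOf 2 T) ⊓ wOf K ≠ ⊥ := by
  obtain ⟨h1, h2⟩ := Cfsg.Agent.S2946.result hL hN hZ T hT hT1 K hK _ rfl
  have hne : omegaCenterOf (thompsonSubgroupOf 2 T) ⊓ wOf K ≠ ⊥ := by
    intro h
    rw [h, Subgroup.card_bot] at h1
    omega
  refine ⟨?_, hne⟩
  have c := Cfsg.Agent.Lib.Helper71.JC.cfg_of_isJComponent hT hK
  have hdisj : YK T K ⊓ (omegaCenterOf (thompsonSubgroupOf 2 T) ⊓ wOf K) = ⊥ := by
    rw [eq_bot_iff]
    intro w hw
    obtain ⟨d, hd, hdR⟩ := c.exists_d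
    have hwc : w ∈ Subgroup.centralizer ((K ⊔ thompsonSubgroupOf 2 T : Subgroup G) : Set G) :=
      hw.1.2.2
    have h3 : d * w = w * d :=
      Subgroup.mem_centralizer_iff.mp hwc d (Subgroup.mem_sup_left hd)
    have h4 : d * w * d⁻¹ = w := by rw [h3]; group
    rw [Subgroup.mem_bot]
    exact c.hfp d hd hdR w hw.2.2 h4
  have hnorm : omegaCenterOf (thompsonSubgroupOf 2 T) ⊓ wOf K ≤
      Subgroup.normalizer ((YK T K : Subgroup G) : Set G) := by
    refine le_trans ?_ (Subgroup.centralizer_le_normalizer _)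
    intro b hb
    rw [Subgroup.mem_centralizer_iff]
    intro y hy
    exact omegaCenterOf_comm _ hy.1 hb.1
  have h5 := card_sup_mul_card_inf_of_le_normalizer hnorm
  have h2' : YK T K ⊔ (omegaCenterOf (thompsonSubgroupOf 2 T) ⊓ wOf K) =
      omegaCenterOf (thompsonSubgroupOf 2 T) := by
    unfold YK
    rw [← centralizer_union_eq]
    exact h2
  rw [h2', hdisj, Subgroup.card_bot, mul_one, h1] at h5
  exact h5

end Analysis

/-! ### Pure lemmas on a four-group -/

theorem conj_fix_third {y y' b : G} (hyy : y * y = 1) (h1 : b * y * b⁻¹ = y)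
    (h2 : b * (y * y') * b⁻¹ = y * y') : b * y' * b⁻¹ = y' := by
  have e : y' = y * (y * y') := by rw [← mul_assoc, hyy, one_mul]
  have e2 : b * (y * (y * y')) * b⁻¹ = (b * y * b⁻¹) * (b * (y * y') * b⁻¹) := by group
  rw [e, e2, h1, h2]

theorem mem_centralizer_of_conj_fix {Z₀ : Subgroup G} {b : G}
    (h : ∀ u ∈ Z₀, b * u * b⁻¹ = u) : b ∈ Subgroup.centralizer (Z₀ : Set G) := by
  rw [Subgroup.mem_centralizer_iff]
  intro u hu
  exact (mul_inv_eq_iff_eq_mul.mp (h u hu)).symm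

theorem conj_fix_of_mem_centralizer {Z₀ : Subgroup G} {b u : G}
    (hb : b ∈ Subgroup.centralizer (Z₀ : Set G)) (hu : u ∈ Z₀) : b * u * b⁻¹ = u :=
  mul_inv_eq_iff_eq_mul.mpr (Subgroup.mem_centralizer_iff.mp hb u hu).symm

/-- Coordinates in a four-group `Z₀ = Y × Y^x`. -/
theorem four_coords [Finite G] {Z₀ Y : Subgroup G} (hcomm : ∀ a ∈ Z₀, ∀ b ∈ Z₀, a * b = b * a)
    (hsq : ∀ a ∈ Z₀, a ^ 2 = 1) (hYZ : Y ≤ Z₀) (hY : Nat.card Y = 2) (hZ4 : Nat.card Z₀ = 4)
    {x : G} (hx : x ∈ Subgroup.normalizer (Z₀ : Set G))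
    (hdisj : Y ⊓ Y.map (MulAut.conj x).toMonoidHom = ⊥) :
    ∃ y ∈ Y, y ≠ 1 ∧ x * y * x⁻¹ ∈ Z₀ ∧ x * y * x⁻¹ ≠ y ∧
      ∀ u ∈ Z₀, u = 1 ∨ u = y ∨ u = x * y * x⁻¹ ∨ u = y * (x * y * x⁻¹) := by
  haveI : Fact (Nat.Prime 2) := ⟨Nat.prime_two⟩
  have hYne : Y ≠ ⊥ := by
    intro h
    rw [h, Subgroup.card_bot] at hY
    omega
  obtain ⟨⟨y, hy⟩, hy1'⟩ := (Subgroup.ne_bot_iff_exists_ne_one).mp hYne
  have hy1 : y ≠ 1 := fun h => hy1' (Subtype.ext h)
  have hord : orderOf y = 2 := orderOf_eq_prime (hsq y (hYZ hy)) hy1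
  have hzp : Subgroup.zpowers y = Y := by
    apply Subgroup.eq_of_le_of_card_ge (Subgroup.zpowers_le.mpr hy)
    rw [Nat.card_zpowers, hord, hY]
  have hY2 : ∀ u ∈ Y, u = 1 ∨ u = y := by
    intro u hu
    rw [← hzp] at hu
    obtain ⟨k, rfl⟩ := Subgroup.mem_zpowers_iff.mp hu
    have h1 := zpow_mod_orderOf y k
    rw [hord] at h1
    rcases Int.emod_two_eq_zero_or_one k with h | h
    · left
      rw [← h1]
      norm_num [h]
    · right
      rw [← h1]
      norm_num [h]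
  have hmapZ : Y.map (MulAut.conj x).toMonoidHom ≤ Z₀ := by
    rintro _ ⟨u, hu, rfl⟩
    exact (Subgroup.mem_normalizer_iff.mp hx u).mp (hYZ hu)
  have hy'Z : x * y * x⁻¹ ∈ Z₀ := (Subgroup.mem_normalizer_iff.mp hx y).mp (hYZ hy)
  have hy'ne : x * y * x⁻¹ ≠ y := by
    intro h
    have h1 : y ∈ Y ⊓ Y.map (MulAut.conj x).toMonoidHom :=
      Subgroup.mem_inf.mpr ⟨hy, ⟨y, hy, by simpa using h⟩⟩
    rw [hdisj, Subgroup.mem_bot] at h1
    exact hy1 h1
  refine ⟨y, hy, hy1, hy'Z, hy'ne, ?_⟩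
  have hnorm : Y.map (MulAut.conj x).toMonoidHom ≤ Subgroup.normalizer (Y : Set G) := by
    refine le_trans ?_ (Subgroup.centralizer_le_normalizer _)
    intro b hb
    rw [Subgroup.mem_centralizer_iff]
    intro v hv
    exact hcomm v (hYZ hv) b (hmapZ hb)
  have h5 := card_sup_mul_card_inf_of_le_normalizer hnorm
  rw [hdisj, Subgroup.card_bot, mul_one,
    Subgroup.card_map_of_injective (MulAut.conj x).injective, hY] at h5
  have hsup : Y ⊔ Y.map (MulAut.conj x).toMonoidHom = Z₀ := by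
    apply Subgroup.eq_of_le_of_card_ge (sup_le hYZ hmapZ)
    rw [h5, hZ4]
  intro u hu
  rw [← hsup, Cfsg.Agent.Lib.Helper71.JC.mem_sup_of_le_normalizer hnorm] at hu
  obtain ⟨a, ha, b, ⟨a', ha', rfl⟩, rfl⟩ := hu
  rcases hY2 a ha with rfl | rfl <;> rcases hY2 a' ha' with rfl | rfl
  · left; simp
  · right; right; left; simp
  · right; left; simp
  · right; right; right; simp

/-! ### The case `T < S` -/

section Main

variable [Finite G]

/-- (a) `Z = Ω₁(Z(S)) ≤ Z₀ = Ω₁(Z(J(T)))`. -/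
theorem omegaCenterOf_sylow_le_omegaCenterOf_thompson (hL : Cfsg.IsCharacteristicTwoType G)
    (S : Sylow 2 G) {M : Subgroup G} (hU : Uniq M) {T : Subgroup G}
    (hT : T ∈ maxStraddlingTwoSubgroups M) (hTS : T ≤ (S : Subgroup G)) {K : Subgroup G}
    (hK : K ∈ jComponentsOutside M T) {L : Subgroup G} (hLmax : IsMaximalTwoLocal L)
    (hKL : K ⊔ thompsonSubgroupOf 2 T ≤ L) :
    omegaCenterOf (S : Subgroup G) ≤ omegaCenterOf (thompsonSubgroupOf 2 T) :=
  (omegaCenterOf_sylow_le_omegaCenterOf (uniq_facts hU hT hK hLmax hKL).2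
    (centralizer_pCoreOf_le_of_isTwoLocal hL hLmax.1) S hTS).trans
    (omegaCenterOf_le_omegaCenterOf_thompson T)

/-- `Z ≠ 1`. -/
theorem omegaCenterOf_sylow_ne_bot
    (hZ : ∀ S : Sylow 2 G, Subgroup.centralizer (Cfsg.omegaCenterOf (S : Subgroup G) : Set G) ≤
      Subgroup.normalizer ((S : Subgroup G) : Set G))
    (S : Sylow 2 G) {M : Subgroup G}
    (hMJ : Subgroup.normalizer (thompsonSubgroupOf 2 (S : Subgroup G) : Set G) ≤ M)
    {T K : Subgroup G} (hK : K ∈ jComponentsOutside M T) :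
    omegaCenterOf (S : Subgroup G) ≠ ⊥ := by
  intro h
  apply not_le_centralizer_omegaCenterOf hZ S hMJ hK
  rw [h]
  intro k _
  rw [Subgroup.mem_centralizer_iff]
  intro z hz
  rw [Subgroup.coe_bot, Set.mem_singleton_iff] at hz
  rw [hz]; simp

/-- (e) for `T < S`: `|Y| ≤ 2`. -/
theorem card_YK_le_two (hL : Cfsg.IsCharacteristicTwoType G)
    (hN : ∀ N : Subgroup G, Cfsg.IsTwoLocal N → Group.IsSolvable ↥N)
    (hZ : ∀ S : Sylow 2 G, Subgroup.centralizer (Cfsg.omegaCenterOf (S : Subgroup G) : Set G) ≤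
      Subgroup.normalizer ((S : Subgroup G) : Set G))
    (S : Sylow 2 G) {M : Subgroup G}
    (hMJ : Subgroup.normalizer (thompsonSubgroupOf 2 (S : Subgroup G) : Set G) ≤ M)
    (hU : Uniq M) {T : Subgroup G} (hT : T ∈ maxStraddlingTwoSubgroups M)
    (hTS : T ≤ (S : Subgroup G)) (hne : T ≠ (S : Subgroup G)) {K : Subgroup G}
    (hK : K ∈ jComponentsOutside M T) {L : Subgroup G} (hLmax : IsMaximalTwoLocal L)
    (hKL : K ⊔ thompsonSubgroupOf 2 T ≤ L) : Nat.card ↥(YK T K) ≤ 2 := by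
  haveI : Fact (Nat.Prime 2) := ⟨Nat.prime_two⟩
  obtain ⟨huniq, hsyl⟩ := uniq_facts hU hT hK hLmax hKL
  obtain ⟨x, hxS, hxT, hxN⟩ := Cfsg.Agent.Lib.Helper53.exists_mem_normalizer_not_mem
    S.isPGroup' (lt_of_le_of_ne hTS hne)
  have hxM : x ∈ M := sylow_le_of_normalizer_thompson_le S hMJ hxS
  have hxL : x ∉ L := notMem_of_mem_sylow hsyl S hTS hxS hxT
  have hdisj := YK_inf_map_eq_bot hU hT hK hLmax hKL hxM hxN hxL
  have hxJ : x ∈ Subgroup.normalizer (thompsonSubgroupOf 2 T : Set G) :=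
    Cfsg.Agent.Lib.Helper11.normalizer_le_normalizer_thompsonSubgroupOf 2 T hxN
  have hZ0map : (omegaCenterOf (thompsonSubgroupOf 2 T)).map (MulAut.conj x).toMonoidHom =
      omegaCenterOf (thompsonSubgroupOf 2 T) := by
    rw [← Cfsg.Agent.Lib.Helper81.KS12.omegaCenterOf_map,
      Cfsg.Agent.Lib.Helper47.map_conj_eq_of_mem_normalizer hxJ]
  have hmapZ : (YK T K).map (MulAut.conj x).toMonoidHom ≤
      omegaCenterOf (thompsonSubgroupOf 2 T) := by
    rw [← hZ0map]
    exact Subgroup.map_mono (YK_le T K)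
  have hnorm : (YK T K).map (MulAut.conj x).toMonoidHom ≤
      Subgroup.normalizer ((YK T K : Subgroup G) : Set G) := by
    refine le_trans ?_ (Subgroup.centralizer_le_normalizer _)
    intro b hb
    rw [Subgroup.mem_centralizer_iff]
    intro v hv
    exact omegaCenterOf_comm _ (YK_le T K hv) (hmapZ hb)
  have h5 := card_sup_mul_card_inf_of_le_normalizer hnorm
  rw [hdisj, Subgroup.card_bot, mul_one,
    Subgroup.card_map_of_injective (MulAut.conj x).injective] at h5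
  have h6 := Subgroup.card_le_of_le (sup_le (YK_le T K) hmapZ)
  have h7 := (card_omegaCenterOf_thompson hL hN hZ hT.1.1 hT.1.2.1 hK.1.1).1
  have hpos : 0 < Nat.card ↥(YK T K) := Nat.card_pos
  rw [h5, h7] at h6
  exact Nat.le_of_mul_le_mul_left h6 hpos

/-- `Z ∩ Y = 1` for `T < S` (else `S ≤ L`). -/
theorem omegaCenterOf_sylow_inf_YK (S : Sylow 2 G) {M : Subgroup G} (hU : Uniq M) {T : Subgroup G}
    (hT : T ∈ maxStraddlingTwoSubgroups M) (hTS : T ≤ (S : Subgroup G))
    (hne : T ≠ (S : Subgroup G)) {K : Subgroup G}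
    (hK : K ∈ jComponentsOutside M T) {L : Subgroup G} (hLmax : IsMaximalTwoLocal L)
    (hKL : K ⊔ thompsonSubgroupOf 2 T ≤ L) :
    omegaCenterOf (S : Subgroup G) ⊓ YK T K = ⊥ := by
  obtain ⟨huniq, hsyl⟩ := uniq_facts hU hT hK hLmax hKL
  by_contra hne'
  have h1 := normalizer_le_of_le_YK hU hT hK hLmax hKL
    (inf_le_right : omegaCenterOf (S : Subgroup G) ⊓ YK T K ≤ YK T K) hne'
  have h2 : (S : Subgroup G) ≤ Subgroup.normalizer
      ((omegaCenterOf (S : Subgroup G) ⊓ YK T K : Subgroup G) : Set G) := by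
    refine le_trans ?_ (Subgroup.centralizer_le_normalizer _)
    intro s hs
    rw [Subgroup.mem_centralizer_iff]
    intro z hz
    exact Subgroup.mem_centralizer_iff.mp (omegaCenterOf_le_centralizer _ hz.1) s hs |>.symm
  have h3 := le_of_isSylowTwoIn_of_le hsyl S.isPGroup' hTS (h2.trans h1)
  exact hne (le_antisymm hTS h3)

/-- **The case `T < S` of S2951**, from the uniqueness statement `Uniq M` (= S2950). -/
theorem s2951_ne_core (hL : Cfsg.IsCharacteristicTwoType G)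
    (hN : ∀ N : Subgroup G, Cfsg.IsTwoLocal N → Group.IsSolvable ↥N)
    (hZ : ∀ S : Sylow 2 G, Subgroup.centralizer (Cfsg.omegaCenterOf (S : Subgroup G) : Set G) ≤
      Subgroup.normalizer ((S : Subgroup G) : Set G))
    (S : Sylow 2 G) {M : Subgroup G}
    (hMJ : Subgroup.normalizer (thompsonSubgroupOf 2 (S : Subgroup G) : Set G) ≤ M)
    (hU : Uniq M) {T : Subgroup G} (hT : T ∈ maxStraddlingTwoSubgroups M)
    (hTS : T ≤ (S : Subgroup G)) (hne : T ≠ (S : Subgroup G)) {K : Subgroup G}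
    (hK : K ∈ jComponentsOutside M T) {L : Subgroup G} (hLmax : IsMaximalTwoLocal L)
    (hKL : K ⊔ thompsonSubgroupOf 2 T ≤ L) :
    omegaCenterOf (thompsonSubgroupOf 2 T) ⊓ wOf K ≠ ⊥ ∧
      ((omegaCenterOf (S : Subgroup G) = omegaCenterOf (thompsonSubgroupOf 2 T) ∧
          Nat.card ↥(omegaCenterOf (thompsonSubgroupOf 2 T)) = 2) ∨
        (omegaCenterOf T = omegaCenterOf (thompsonSubgroupOf 2 T) ∧
          Nat.card ↥(omegaCenterOf (thompsonSubgroupOf 2 T)) = 4 ∧
          (L ⊓ Subgroup.centralizer (omegaCenterOf (thompsonSubgroupOf 2 T) : Set G)).relIndex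
            (Subgroup.normalizer (omegaCenterOf (thompsonSubgroupOf 2 T) : Set G)) = 2)) := by
  haveI : Fact (Nat.Prime 2) := ⟨Nat.prime_two⟩
  obtain ⟨huniq, hsyl⟩ := uniq_facts hU hT hK hLmax hKL
  obtain ⟨hcard, hW⟩ := card_omegaCenterOf_thompson hL hN hZ hT.1.1 hT.1.2.1 hK.1.1
  refine ⟨hW, ?_⟩
  have hY2 := card_YK_le_two hL hN hZ S hMJ hU hT hTS hne hK hLmax hKL
  have hZle := omegaCenterOf_sylow_le_omegaCenterOf_thompson hL S hU hT hTS hK hLmax hKL
  have hZne := omegaCenterOf_sylow_ne_bot hZ S hMJ hK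
  have hpos : 0 < Nat.card ↥(YK T K) := Nat.card_pos
  rcases (by omega : Nat.card ↥(YK T K) = 1 ∨ Nat.card ↥(YK T K) = 2) with h1 | h2
  · left
    have hc2 : Nat.card ↥(omegaCenterOf (thompsonSubgroupOf 2 T)) = 2 := by rw [hcard, h1]
    refine ⟨?_, hc2⟩
    apply Subgroup.eq_of_le_of_card_ge hZle
    rw [hc2]
    by_contra hlt
    have hZpos : 0 < Nat.card ↥(omegaCenterOf (S : Subgroup G)) := Nat.card_pos
    have h3 : Nat.card ↥(omegaCenterOf (S : Subgroup G)) = 1 := by omega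
    exact hZne (Subgroup.card_eq_one.mp h3)
  · right
    have hc4 : Nat.card ↥(omegaCenterOf (thompsonSubgroupOf 2 T)) = 4 := by rw [hcard, h2]
    -- the element `x ∈ N_S(T) \ T`
    obtain ⟨x, hxS, hxT, hxN⟩ := Cfsg.Agent.Lib.Helper53.exists_mem_normalizer_not_mem
      S.isPGroup' (lt_of_le_of_ne hTS hne)
    have hSM : (S : Subgroup G) ≤ M := sylow_le_of_normalizer_thompson_le S hMJ
    have hJT : thompsonSubgroupOf 2 T ≤ T := Cfsg.Agent.Lib.Helper11.thompsonSubgroupOf_le 2 T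
    have hNT : Subgroup.normalizer (T : Set G) ≤
        Subgroup.normalizer (omegaCenterOf (thompsonSubgroupOf 2 T) : Set G) :=
      (Cfsg.Agent.Lib.Helper11.normalizer_le_normalizer_thompsonSubgroupOf 2 T).trans
        (Cfsg.Agent.Lib.Helper85.KS12.normalizer_le_normalizer_omegaCenterOf _)
    have hdisj := YK_inf_map_eq_bot hU hT hK hLmax hKL (hSM hxS) hxN
      (notMem_of_mem_sylow hsyl S hTS hxS hxT)
    have hcomm : ∀ a ∈ omegaCenterOf (thompsonSubgroupOf 2 T),
        ∀ b ∈ omegaCenterOf (thompsonSubgroupOf 2 T), a * b = b * a :=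
      fun a ha b hb => omegaCenterOf_comm _ ha hb
    have hsq : ∀ a ∈ omegaCenterOf (thompsonSubgroupOf 2 T), a ^ 2 = 1 :=
      fun a ha => omegaCenterOf_sq _ ha
    obtain ⟨y, hy, hy1, hy'Z, hy'ne, hcov⟩ :=
      four_coords hcomm hsq (YK_le T K) h2 hc4 (hNT hxN) hdisj
    have hyZ : y ∈ omegaCenterOf (thompsonSubgroupOf 2 T) := YK_le T K hy
    have hyy : y * y = 1 := by rw [← pow_two]; exact hsq y hyZ
    have hy'1 : x * y * x⁻¹ ≠ 1 := fun h => hy1 (conj_eq_one_iff.mp h)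
    have hz1ne : y * (x * y * x⁻¹) ≠ 1 := by
      intro h
      apply hy'ne
      calc x * y * x⁻¹ = (y * y) * (x * y * x⁻¹) := by rw [hyy, one_mul]
        _ = y * (y * (x * y * x⁻¹)) := by group
        _ = y := by rw [h, mul_one]
    -- elements of `Z`
    have hZ01 : ∀ u ∈ omegaCenterOf (S : Subgroup G), u = 1 ∨ u = y * (x * y * x⁻¹) := by
      intro u hu
      have hxu : x * u = u * x :=
        Subgroup.mem_centralizer_iff.mp (omegaCenterOf_le_centralizer _ hu) x hxS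
      rcases hcov u (hZle hu) with rfl | rfl | rfl | rfl
      · left; rfl
      · exfalso
        exact hy'ne (mul_inv_eq_iff_eq_mul.mpr hxu)
      · exfalso
        apply hy'ne
        have h3 : (x * y * x⁻¹) * x = x * y := by group
        rw [h3] at hxu
        exact mul_left_cancel hxu
      · right; rfl
    have hz1Z : y * (x * y * x⁻¹) ∈ omegaCenterOf (S : Subgroup G) := by
      obtain ⟨⟨u, hu⟩, hu1'⟩ := (Subgroup.ne_bot_iff_exists_ne_one).mp hZne
      have hu1 : u ≠ 1 := fun h => hu1' (Subtype.ext h)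
      rcases hZ01 u hu with h | h
      · exact absurd h hu1
      · rw [← h]; exact hu
    have hSz1 : ∀ s ∈ (S : Subgroup G), s * (y * (x * y * x⁻¹)) * s⁻¹ = y * (x * y * x⁻¹) :=
      fun s hs => mul_inv_eq_iff_eq_mul.mpr
        (Subgroup.mem_centralizer_iff.mp (omegaCenterOf_le_centralizer _ hz1Z) s hs)
    -- `T` centralizes `Z₀`
    have hTy : ∀ t ∈ T, t * y * t⁻¹ = y := by
      intro t ht
      have htN : t ∈ Subgroup.normalizer (omegaCenterOf (thompsonSubgroupOf 2 T) : Set G) :=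
        hNT (Subgroup.le_normalizer ht)
      have h3 : t * y * t⁻¹ ∈ omegaCenterOf (thompsonSubgroupOf 2 T) :=
        (Subgroup.mem_normalizer_iff.mp htN y).mp hyZ
      rcases hcov _ h3 with h | h | h | h
      · exact absurd (conj_eq_one_iff.mp h) hy1
      · exact h
      · exfalso
        -- `x⁻¹ t` fixes `y`
        have hx'S : x⁻¹ * t ∈ (S : Subgroup G) :=
          Subgroup.mul_mem _ (Subgroup.inv_mem _ hxS) (hTS ht)
        have hx'T : x⁻¹ * t ∉ T := by
          intro h4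
          apply hxT
          have h5 : x = t * (x⁻¹ * t)⁻¹ := by group
          rw [h5]
          exact T.mul_mem ht (T.inv_mem h4)
        have hx'N : x⁻¹ * t ∈ Subgroup.normalizer (T : Set G) :=
          Subgroup.mul_mem _ (Subgroup.inv_mem _ hxN) (Subgroup.le_normalizer ht)
        have hdisj' := YK_inf_map_eq_bot hU hT hK hLmax hKL (hSM hx'S) hx'N
          (notMem_of_mem_sylow hsyl S hTS hx'S hx'T)
        have h6 : (x⁻¹ * t) * y * (x⁻¹ * t)⁻¹ = y := by
          have h7 : (x⁻¹ * t) * y * (x⁻¹ * t)⁻¹ = x⁻¹ * (t * y * t⁻¹) * x := by group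
          rw [h7, h]
          group
        have h8 : y ∈ YK T K ⊓ (YK T K).map (MulAut.conj (x⁻¹ * t)).toMonoidHom :=
          Subgroup.mem_inf.mpr ⟨hy, ⟨y, hy, by
            simp only [MulEquiv.coe_toMonoidHom, MulAut.conj_apply]; exact h6⟩⟩
        rw [hdisj', Subgroup.mem_bot] at h8
        exact hy1 h8
      · exfalso
        have h4 := hSz1 t (hTS ht)
        rw [← h] at h4
        -- `t (t y t⁻¹) t⁻¹ = t y t⁻¹`, so `t y t⁻¹ = y`
        have h5 : t * y * t⁻¹ = y := by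
          have h6 : t * (t * y * t⁻¹) * t⁻¹ = t * y * t⁻¹ := h4
          have h7 : t * (t * y * t⁻¹) = t * y := by
            calc t * (t * y * t⁻¹) = (t * (t * y * t⁻¹) * t⁻¹) * t := by group
              _ = (t * y * t⁻¹) * t := by rw [h6]
              _ = t * y := by group
          have h8 := mul_left_cancel h7
          exact h8
        rw [h5] at h
        -- `y = y * y'` gives `y' = 1`
        apply hy'1
        have h9 : y * 1 = y * (x * y * x⁻¹) := by rw [mul_one]; exact h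
        exact (mul_left_cancel h9).symm
    have hTfix : ∀ t ∈ T, ∀ u ∈ omegaCenterOf (thompsonSubgroupOf 2 T), t * u * t⁻¹ = u := by
      intro t ht u hu
      rcases hcov u hu with rfl | rfl | rfl | rfl
      · simp
      · exact hTy t ht
      · exact conj_fix_third hyy (hTy t ht) (hSz1 t (hTS ht))
      · exact hSz1 t (hTS ht)
    have hZ0T : omegaCenterOf T = omegaCenterOf (thompsonSubgroupOf 2 T) := by
      apply le_antisymm (omegaCenterOf_le_omegaCenterOf_thompson T)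
      intro u hu
      refine mem_omegaCenterOf (hJT (omegaCenterOf_le _ hu)) ?_ (hsq u hu)
      rw [Subgroup.mem_centralizer_iff]
      intro t ht
      exact mul_inv_eq_iff_eq_mul.mp (hTfix t ht u hu)
    refine ⟨hZ0T, hc4, ?_⟩
    -- `C_G(Z₀) ≤ L`
    have hYne : YK T K ≠ ⊥ := by
      intro h
      rw [h, Subgroup.card_bot] at h2
      omega
    have hCL : Subgroup.centralizer (omegaCenterOf (thompsonSubgroupOf 2 T) : Set G) ≤ L :=
      (Subgroup.centralizer_le (YK_le T K)).trans ((Subgroup.centralizer_le_normalizer _).trans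
        (normalizer_le_of_le_YK hU hT hK hLmax hKL le_rfl hYne))
    -- no element of `G` conjugates `z₁ = y y'` to `y`
    have hF : ∀ g : G, g * (y * (x * y * x⁻¹)) * g⁻¹ ≠ y := by
      intro g hg
      apply isJComponent_not_le_normalizer_sylow hT.1.1 hK.1.1 (g • S)
      refine le_trans ?_ (hZ (g • S))
      rw [Cfsg.Agent.Lib.Helper11.sylow_smul_coe, Cfsg.Agent.Lib.Helper81.KS12.omegaCenterOf_map]
      intro k hk
      rw [Subgroup.mem_centralizer_iff]
      rintro _ ⟨u, hu, rfl⟩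
      have hyc : k * y = y * k := Subgroup.mem_centralizer_iff.mp hy.2.2 k hk
      rcases hZ01 u hu with rfl | rfl
      · simp
      · have h3 : (MulAut.conj g).toMonoidHom (y * (x * y * x⁻¹)) = y := by simpa using hg
        rw [h3]
        exact hyc.symm
    -- every element of `N_G(Z₀)` fixes `z₁`
    have hfix : ∀ g ∈ Subgroup.normalizer (omegaCenterOf (thompsonSubgroupOf 2 T) : Set G),
        g * (y * (x * y * x⁻¹)) * g⁻¹ = y * (x * y * x⁻¹) := by
      intro g hg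
      have h3 : g * (y * (x * y * x⁻¹)) * g⁻¹ ∈ omegaCenterOf (thompsonSubgroupOf 2 T) :=
        (Subgroup.mem_normalizer_iff.mp hg _).mp (Subgroup.mul_mem _ hyZ hy'Z)
      rcases hcov _ h3 with h | h | h | h
      · exact absurd (conj_eq_one_iff.mp h) hz1ne
      · exact absurd h (hF g)
      · exfalso
        apply hF (x⁻¹ * g)
        have h7 : (x⁻¹ * g) * (y * (x * y * x⁻¹)) * (x⁻¹ * g)⁻¹ =
            x⁻¹ * (g * (y * (x * y * x⁻¹)) * g⁻¹) * x := by group
        rw [h7, h]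
        group
      · exact h
    have hxN₀ : x ∈ Subgroup.normalizer (omegaCenterOf (thompsonSubgroupOf 2 T) : Set G) :=
      hNT hxN
    rw [Subgroup.relIndex_eq_two_iff]
    refine ⟨x, hxN₀, ?_⟩
    intro b hb
    have h3 : b * y * b⁻¹ ∈ omegaCenterOf (thompsonSubgroupOf 2 T) :=
      (Subgroup.mem_normalizer_iff.mp hb y).mp hyZ
    have hbz := hfix b hb
    rcases hcov _ h3 with h | h | h | h
    · exact absurd (conj_eq_one_iff.mp h) hy1
    · -- `b` centralizes `Z₀`, `b x` does not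
      have hbC : b ∈ Subgroup.centralizer (omegaCenterOf (thompsonSubgroupOf 2 T) : Set G) := by
        apply mem_centralizer_of_conj_fix
        intro u hu
        rcases hcov u hu with rfl | rfl | rfl | rfl
        · simp
        · exact h
        · exact conj_fix_third hyy h hbz
        · exact hbz
      refine Or.inr ⟨Subgroup.mem_inf.mpr ⟨hCL hbC, hbC⟩, ?_⟩
      intro hbx
      apply hy'ne
      have h4 := conj_fix_of_mem_centralizer (Subgroup.mem_inf.mp hbx).2 hyZ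
      have h5 : (b * x) * y * (b * x)⁻¹ = b * (x * y * x⁻¹) * b⁻¹ := by group
      rw [h5, conj_fix_third hyy h hbz] at h4
      exact h4
    · -- `b x` centralizes `Z₀`, `b` does not
      have hbx1 : (b * x) * y * (b * x)⁻¹ = y := by
        have h5 : (b * x) * y * (b * x)⁻¹ = b * (x * y * x⁻¹) * b⁻¹ := by group
        rw [h5]
        -- `b y' b⁻¹ = (b y b⁻¹)⁻¹ ... `: use `y' = y * z₁`
        have e : x * y * x⁻¹ = y * (y * (x * y * x⁻¹)) := by rw [← mul_assoc, hyy, one_mul]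
        have e2 : b * (y * (y * (x * y * x⁻¹))) * b⁻¹ =
            (b * y * b⁻¹) * (b * (y * (x * y * x⁻¹)) * b⁻¹) := by group
        have hy'y' : (x * y * x⁻¹) * (x * y * x⁻¹) = 1 := by
          rw [← pow_two]; exact hsq _ hy'Z
        calc b * (x * y * x⁻¹) * b⁻¹ = b * (y * (y * (x * y * x⁻¹))) * b⁻¹ := by rw [← e]
          _ = (b * y * b⁻¹) * (b * (y * (x * y * x⁻¹)) * b⁻¹) := e2
          _ = (x * y * x⁻¹) * (y * (x * y * x⁻¹)) := by rw [h, hbz]
          _ = y * ((x * y * x⁻¹) * (x * y * x⁻¹)) := by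
              rw [← mul_assoc, hcomm _ hy'Z _ hyZ, mul_assoc]
          _ = y := by rw [hy'y', mul_one]
      have hbx2 : (b * x) * (y * (x * y * x⁻¹)) * (b * x)⁻¹ = y * (x * y * x⁻¹) := by
        have h5 : (b * x) * (y * (x * y * x⁻¹)) * (b * x)⁻¹ =
            b * (x * (y * (x * y * x⁻¹)) * x⁻¹) * b⁻¹ := by group
        rw [h5, hSz1 x hxS, hbz]
      have hbxC : b * x ∈
          Subgroup.centralizer (omegaCenterOf (thompsonSubgroupOf 2 T) : Set G) := by
        apply mem_centralizer_of_conj_fix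
        intro u hu
        rcases hcov u hu with rfl | rfl | rfl | rfl
        · simp
        · exact hbx1
        · exact conj_fix_third hyy hbx1 hbx2
        · exact hbx2
      refine Or.inl ⟨Subgroup.mem_inf.mpr ⟨hCL hbxC, hbxC⟩, ?_⟩
      intro hbC
      apply hy'ne
      have h4 := conj_fix_of_mem_centralizer (Subgroup.mem_inf.mp hbC).2 hyZ
      rw [h] at h4
      exact h4
    · exfalso
      apply hF b⁻¹
      rw [← h]
      group

end Main

/-! ### Wrappers with the frozen statements as hypotheses -/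

/-- `Uniq M` from the statement S2950. -/
theorem uniq_of_s2950 [Finite G] (hL : Cfsg.IsCharacteristicTwoType G)
    (hN : ∀ N : Subgroup G, Cfsg.IsTwoLocal N → Group.IsSolvable ↥N)
    (hZ : ∀ S : Sylow 2 G, Subgroup.centralizer (Cfsg.omegaCenterOf (S : Subgroup G) : Set G) ≤
      Subgroup.normalizer ((S : Subgroup G) : Set G))
    (hO : Cfsg.pCore 2 G = ⊥)
    (h2950 : type_of% (@Cfsg.CfsgFrozen.S2950 G _ _ hL hN hZ hO))
    (S : Sylow 2 G) (M : Subgroup G) (hM : Cfsg.IsTwoLocal M)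
    (hMJ : Subgroup.normalizer (Cfsg.thompsonSubgroupOf 2 (S : Subgroup G) : Set G) ≤ M) :
    Uniq M := by
  intro T hT K hK
  obtain ⟨L, h1, h2, h3, -, h5⟩ := h2950 S M hM hMJ T hT K hK
  exact ⟨L, h1, h2, h3, h5⟩

/-- **S2951 in the case `T ≠ S`**, from the statement S2950. -/
theorem s2951_of_ne [Finite G] (hL : Cfsg.IsCharacteristicTwoType G)
    (hN : ∀ N : Subgroup G, Cfsg.IsTwoLocal N → Group.IsSolvable ↥N)
    (hZ : ∀ S : Sylow 2 G, Subgroup.centralizer (Cfsg.omegaCenterOf (S : Subgroup G) : Set G) ≤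
      Subgroup.normalizer ((S : Subgroup G) : Set G))
    (hO : Cfsg.pCore 2 G = ⊥)
    (h2950 : type_of% (@Cfsg.CfsgFrozen.S2950 G _ _ hL hN hZ hO))
    (S : Sylow 2 G) (M : Subgroup G) (hM : Cfsg.IsTwoLocal M)
    (hMJ : Subgroup.normalizer (Cfsg.thompsonSubgroupOf 2 (S : Subgroup G) : Set G) ≤ M)
    (T : Subgroup G) (hT : T ∈ Cfsg.maxStraddlingTwoSubgroups M)
    (hTS : T ≤ (S : Subgroup G)) (hne : T ≠ (S : Subgroup G))
    (K : Subgroup G) (hK : K ∈ Cfsg.jComponentsOutside M T)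
    (L : Subgroup G) (hLmax : Cfsg.IsMaximalTwoLocal L)
    (hKL : K ⊔ Cfsg.thompsonSubgroupOf 2 T ≤ L)
    (Z Z₀ : Subgroup G) (hZdef : Z = Cfsg.omegaCenterOf (S : Subgroup G))
    (hZ₀ : Z₀ = Cfsg.omegaCenterOf (Cfsg.thompsonSubgroupOf 2 T)) :
    Z₀ ⊓ Cfsg.wOf K ≠ ⊥ ∧
      ((Z = Z₀ ∧ Nat.card ↥Z₀ = 2) ∨ (Z = Z₀ ∧ Nat.card ↥Z₀ = 4 ∧ T = (S : Subgroup G)) ∨
        (Cfsg.omegaCenterOf T = Z₀ ∧ Nat.card ↥Z₀ = 4 ∧
          (L ⊓ Subgroup.centralizer (Z₀ : Set G)).relIndex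
            (Subgroup.normalizer (Z₀ : Set G)) = 2)) := by
  subst hZdef hZ₀
  obtain ⟨h1, h2⟩ := s2951_ne_core hL hN hZ S hMJ
    (uniq_of_s2950 hL hN hZ hO h2950 S M hM hMJ) hT hTS hne hK hLmax hKL
  refine ⟨h1, ?_⟩
  rcases h2 with h | h
  · exact Or.inl h
  · exact Or.inr (Or.inr h)

end Cfsg.Agent.Lib.Helper2.KS12
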