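import Mathlib
import Cfsg.Agent.Lib.Helper2.KS12.V4

/-!
Kurzweil–Stellmacher chapter 12 cluster, package V4 (helper2), add-on: `|Ω₁(Z(S))| = 2` when
`T < S`.
-/

set_option autoImplicit false

namespace Cfsg.Agent.Lib.Helper2.KS12

open Cfsg

variable {G : Type*} [Group G] [Finite G]

/-- For `T < S`: `Z = Ω₁(Z(S))` has order 2. -/
theorem card_omegaCenterOf_sylow_eq_two (hL : Cfsg.IsCharacteristicTwoType G)
    (hN : ∀ N : Subgroup G, Cfsg.IsTwoLocal N → Group.IsSolvable ↥N)
    (hZ : ∀ S : Sylow 2 G, Subgroup.centralizer (Cfsg.omegaCenterOf (S : Subgroup G) : Set G) ≤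
      Subgroup.normalizer ((S : Subgroup G) : Set G))
    (S : Sylow 2 G) {M : Subgroup G}
    (hMJ : Subgroup.normalizer (thompsonSubgroupOf 2 (S : Subgroup G) : Set G) ≤ M)
    (hU : Uniq M) {T : Subgroup G} (hT : T ∈ maxStraddlingTwoSubgroups M)
    (hTS : T ≤ (S : Subgroup G)) (hne : T ≠ (S : Subgroup G)) {K : Subgroup G}
    (hK : K ∈ jComponentsOutside M T) {L : Subgroup G} (hLmax : IsMaximalTwoLocal L)
    (hKL : K ⊔ thompsonSubgroupOf 2 T ≤ L) :
    Nat.card ↥(omegaCenterOf (S : Subgroup G)) = 2 := by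
  have hZle := omegaCenterOf_sylow_le_omegaCenterOf_thompson hL S hU hT hTS hK hLmax hKL
  have hdisj := omegaCenterOf_sylow_inf_YK S hU hT hTS hne hK hLmax hKL
  have hZne := omegaCenterOf_sylow_ne_bot hZ S hMJ hK
  have hcard := (card_omegaCenterOf_thompson hL hN hZ hT.1.1 hT.1.2.1 hK.1.1).1
  have hnorm : YK T K ≤ Subgroup.normalizer ((omegaCenterOf (S : Subgroup G) : Subgroup G) : Set G) := by
    refine le_trans ?_ (Subgroup.centralizer_le_normalizer _)
    intro b hb
    rw [Subgroup.mem_centralizer_iff]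
    intro v hv
    exact omegaCenterOf_comm _ (hZle hv) (YK_le T K hb)
  have h5 := card_sup_mul_card_inf_of_le_normalizer hnorm
  rw [hdisj, Subgroup.card_bot, mul_one] at h5
  have h6 := Subgroup.card_le_of_le (sup_le hZle (YK_le T K))
  rw [h5, hcard] at h6
  have hpos : 0 < Nat.card ↥(YK T K) := Nat.card_pos
  have h7 : Nat.card ↥(omegaCenterOf (S : Subgroup G)) ≤ 2 := by
    rw [mul_comm] at h6
    exact Nat.le_of_mul_le_mul_left h6 hpos
  have hZpos : 0 < Nat.card ↥(omegaCenterOf (S : Subgroup G)) := Nat.card_pos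
  by_contra hlt
  have h3 : Nat.card ↥(omegaCenterOf (S : Subgroup G)) = 1 := by omega
  exact hZne (Subgroup.card_eq_one.mp h3)

end Cfsg.Agent.Lib.Helper2.KS12
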